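import Mathlib
import Cfsg.Agent.Inv.QGroup
import Cfsg.Agent.Block.DihBlock
import Cfsg.Agent.ABG.SD
import Cfsg.Agent.Char.Ito

/-! Brauer's order formula for a simple group with quasi-dihedral Sylow 2-subgroups
(guide ABG_1_char). -/

set_option autoImplicit false

namespace Cfsg.Agent.ABG

open Cfsg Subgroup Cfsg.Agent.Char

theorem SignedIrr.dvd_index_mul {G : Type*} [Group G] [Finite G] {z : G} {d v : ℤ}
    (h : SignedIrr G z d v) : d ∣ ((centralizer ({z} : Set G)).index : ℤ) * v := by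
  obtain ⟨χ, δ, hδ, -, h1, h2⟩ := h
  have h3 := χ.2.isIntegral_central z
  have h0 : (d : ℂ) ≠ 0 := fun e => χ.2.one_ne_zero (by simp [h1, e])
  have e : ((centralizer ({z} : Set G)).index : ℂ) * (χ : G → ℂ) z / (χ : G → ℂ) 1 =
      algebraMap ℚ ℂ ((((centralizer ({z} : Set G)).index : ℤ) * v : ℤ) / d) := by
    rw [h1, h2]
    rcases hδ with rfl | rfl <;> simp [neg_div_neg_eq]
  rw [e, isIntegral_algebraMap_iff (algebraMap ℚ ℂ).injective] at h3
  obtain ⟨n, hn⟩ := IsIntegrallyClosed.isIntegral_iff.1 h3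
  have h0' : (d : ℚ) ≠ 0 := by exact_mod_cast h0
  refine ⟨n, Int.cast_injective (α := ℚ) ?_⟩
  rw [eq_div_iff h0'] at hn
  rw [← hn]
  simp [mul_comm]

/-- `Q = ± q` with `Q ≡ 3 mod 4`; `x`, `u`, `x - 1`, `x + u - 1` are signed degrees of characters
of the principal 2-block with values `Q`, `-Q`, `± (Q - 1)`, `-1` at `z`. -/
theorem order_QD {G : Type*} [Group G] [Finite G] [IsSimpleGroup G] (hG : ¬ IsMulCommutative G)
    (S : Sylow 2 G) (hS : IsQuasiDihedral (S : Subgroup G))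
    {z : G} (hz : orderOf z = 2) (hzS : z ∈ (S : Subgroup G))
    (hzc : ∀ s ∈ (S : Subgroup G), s * z = z * s)
    {T : Subgroup G} (hTS : T ≤ S) (hT : IsKleinFour T)
    {F : Type*} [Field F] [Fintype F] (hF : Odd (Fintype.card F))
    (hL : ∃ N : Subgroup (centralizer ({z} : Set G) ⧸ oddCore (centralizer ({z} : Set G))),
      N.Normal ∧ Nonempty (N ≃* Matrix.SpecialLinearGroup (Fin 2) F))
    {Q : ℤ} (hQ : Q.natAbs = Fintype.card F) (hQ4 : Q % 4 = 3) :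
    ∃ x u : ℤ, (x - Q ^ 2) * (u - Q ^ 2) = Q ^ 2 * (Q ^ 2 - 1) ∧ Odd u ∧
      (Nat.card (S : Subgroup G) : ℤ) ∣ 2 * (x - Q) ∧ (Nat.card (S : Subgroup G) : ℤ) ∣ 4 * (Q + 1) ∧
      (Nat.card G : ℤ) * (Nat.card (centralizer (T : Set G)) : ℤ) ^ 2 * (Q * (x - Q) ^ 2) =
        (Nat.card (centralizer ({z} : Set G)) : ℤ) ^ 3 * ((Q - 1) * (x * (x - 1))) ∧
      x ∣ ((centralizer ({z} : Set G)).index : ℤ) * Q ∧
      (x - 1) ∣ ((centralizer ({z} : Set G)).index : ℤ) * (Q - 1) ∧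
      u ∣ ((centralizer ({z} : Set G)).index : ℤ) * Q ∧
      (x + u - 1) ∣ ((centralizer ({z} : Set G)).index : ℤ) := by
  obtain ⟨Q', y, x₂, x₃, hQ', h4, ⟨m, -, hm⟩, h1, y4, -, e1, e2, h, s1, s2, s3, -, s5, -⟩ :=
    order_sd hG S hS z hz hzS hzc T hTS hT F hF hL
  obtain rfl : Q = -Q' := by omega
  refine ⟨-y, x₃, by linear_combination Q' ^ 2 * e1 - e2, ?_, ?_, ⟨-m, by linear_combination -hm⟩,
    by linear_combination h, ?_, ?_, ?_, ?_⟩
  · obtain ⟨a, rfl⟩ : ∃ a, Q' = 4 * a + 1 := ⟨Q' / 4, by omega⟩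
    obtain ⟨b, rfl⟩ : ∃ b, y = 4 * b + 1 := ⟨y / 4, by omega⟩
    refine (Int.even_or_odd x₃).resolve_left ?_
    rintro ⟨w, rfl⟩
    have : 2 * (w * (2 * b + 8 * a ^ 2 + 4 * a + 1) - (8 * a ^ 2 + 4 * a) * (2 * b + 1) - b) = 1 := by
      refine mul_left_cancel₀ two_ne_zero ?_
      linear_combination e2 - (4 * a + 1) ^ 2 * e1
    omega
  · rw [show 2 * (-y - -Q') = -(2 * (y - Q')) by ring]
    exact h1.neg_right
  · simpa using s1.dvd_index_mul
  · rw [show -y - 1 = -(1 + y) by ring, show -Q' - 1 = -(Q' + 1) by ring, mul_neg, neg_dvd,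
      dvd_neg]
    exact s5.dvd_index_mul
  · simpa using s3.dvd_index_mul
  · rw [show -y + x₃ - 1 = -x₂ by linarith]
    simpa using s2.dvd_index_mul

end Cfsg.Agent.ABG
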